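import Mathlib
import Cfsg.Agent.S0684
import Cfsg.Agent.S4295
import Cfsg.Agent.Lib.Helper12.Fpf

/-!
# The conditional core of S0686

`s0686_of`: the frozen statement of S0686, under the hub hypothesis `HubZ` (the literal type of
the statement S0690, Zassenhaus' theorem on perfect fixed-point-free automorphism groups).
-/

set_option autoImplicit false

namespace Cfsg.Agent.Lib.Helper86.NF

open Cfsg.Agent.Lib.Helper12

universe u

/-- the hub: the statement of S0690 -/
def HubZ : Prop :=
  ∀ (K : Type u) [Group K] [Finite K] (G : Subgroup (MulAut K)),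
    (∀ φ ∈ G, φ ≠ 1 → ∀ k : K, φ k = k → k = 1) → commutator G = ⊤ → G ≠ ⊥ →
    Nonempty (G ≃* Matrix.SpecialLinearGroup (Fin 2) (ZMod 5))

section

variable {p : ℕ} [Fact p.Prime] {V : Type u} [AddCommGroup V] [Module (ZMod p) V]

/-- linear automorphisms as automorphisms of the multiplicative copy of `V` -/
def toAut : (V ≃ₗ[ZMod p] V) →* MulAut (Multiplicative V) where
  toFun f := AddEquiv.toMultiplicative f.toAddEquiv
  map_one' := rfl
  map_mul' _ _ := rfl

/-- a perfect non-trivial subgroup of a semiregular linear group is `SL(2,5)` (by the hub) -/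
theorem perfect_iso (hub : HubZ.{u}) [Finite V] (H : Subgroup (V ≃ₗ[ZMod p] V))
    (hsemi : ∀ (h : H) (v : V), v ≠ 0 → (h : V ≃ₗ[ZMod p] V) v = v → h = 1)
    (N : Subgroup H) (hperf : ⁅N, N⁆ = N) (hne : N ≠ ⊥) :
    Nonempty (N ≃* Matrix.SpecialLinearGroup (Fin 2) (ZMod 5)) := by
  classical
  let θ : N →* MulAut (Multiplicative V) :=
    (toAut (p := p) (V := V)).comp (H.subtype.comp N.subtype)
  have hθ : Function.Injective θ := by
    intro a b hab
    apply Subtype.ext
    apply Subtype.ext
    apply LinearEquiv.ext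
    intro v
    have := congrArg (fun f : MulAut (Multiplicative V) =>
      Multiplicative.toAdd (f (Multiplicative.ofAdd v))) hab
    exact this
  have hNperf : commutator N = ⊤ := by
    rw [commutator_def]
    apply Subgroup.map_injective N.subtype_injective
    rw [Subgroup.map_commutator, ← MonoidHom.range_eq_map, Subgroup.range_subtype, hperf]
  have hGperf : commutator θ.range = ⊤ := by
    let e : N ≃* θ.range := MonoidHom.ofInjective hθ
    rw [commutator_def]
    have h1 : (⊤ : Subgroup θ.range) = Subgroup.map e.toMonoidHom ⊤ :=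
      (Subgroup.map_top_of_surjective _ e.surjective).symm
    rw [h1, ← Subgroup.map_commutator, ← commutator_def, hNperf]
  have hfpf : ∀ φ ∈ θ.range, φ ≠ 1 → ∀ k : Multiplicative V, φ k = k → k = 1 := by
    rintro φ ⟨n, rfl⟩ hφ k hk
    by_contra hk1
    apply hφ
    have hv : Multiplicative.toAdd k ≠ 0 := by
      intro h0
      apply hk1
      exact Multiplicative.toAdd.injective h0
    have hfix : ((n : H) : V ≃ₗ[ZMod p] V) (Multiplicative.toAdd k) = Multiplicative.toAdd k :=
      congrArg Multiplicative.toAdd hk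
    have h1 : (n : H) = 1 := hsemi n _ hv hfix
    have hn1 : n = 1 := Subtype.ext h1
    rw [hn1, map_one]
  have hGne : θ.range ≠ ⊥ := by
    intro hbot
    apply hne
    rw [eq_bot_iff]
    intro n hn
    have h1 : θ ⟨n, hn⟩ ∈ θ.range := ⟨_, rfl⟩
    rw [hbot, Subgroup.mem_bot] at h1
    have h2 : (⟨n, hn⟩ : N) = 1 := hθ (h1.trans (map_one θ).symm)
    rw [Subgroup.mem_bot]
    exact congrArg Subtype.val h2
  obtain ⟨e⟩ := hub (Multiplicative V) θ.range hfpf hGperf hGne
  exact ⟨(MonoidHom.ofInjective hθ).trans e⟩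

end

/-- the frozen statement of S0686, conditional on the hub -/
theorem s0686_of (hub : HubZ.{u}) {p : ℕ} [Fact p.Prime] {V : Type u} [AddCommGroup V]
    [Module (ZMod p) V] [Finite V] (H : Subgroup (V ≃ₗ[ZMod p] V))
    (hreg : ∀ v w : V, v ≠ 0 → w ≠ 0 → ∃! h : H, (h : V ≃ₗ[ZMod p] V) v = w)
    (hI : ∀ A : Subgroup H, A.Normal → IsCyclic A → ∃ W : Submodule (ZMod p) V, W ≠ ⊥ ∧ W ≠ ⊤ ∧
      ∀ a ∈ A, ∀ v ∈ W, ((a : H) : V ≃ₗ[ZMod p] V) v ∈ W)
    (A : Subgroup H) (hAn : A.Normal) (hAc : IsMulCommutative A)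
    (hAmax : ∀ B : Subgroup H, B.Normal → IsMulCommutative B → A ≤ B → B = A)
    (N : Subgroup H) (hNn : N.Normal) (hNle : N ≤ Subgroup.centralizer (A : Set H))
    (hNna : ¬ IsMulCommutative N)
    (hNmin : ∀ M : Subgroup H, M.Normal → M ≤ N → ¬ IsMulCommutative M → M = N) :
    Nonempty (N ≃* QuaternionGroup 2) ∨
      Nonempty (N ≃* Matrix.SpecialLinearGroup (Fin 2) (ZMod 5)) := by
  classical
  have hfinL := S0684.finite_linEquiv (p := p) (V := V)
  have hnt : Nontrivial V := by
    obtain ⟨W, hW, -, -⟩ := hI ⊥ inferInstance inferInstance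
    obtain ⟨v, -, hv⟩ := (Submodule.ne_bot_iff _).mp hW
    exact ⟨⟨v, 0, hv⟩⟩
  have hsemi : ∀ (h : H) (v : V), v ≠ 0 → (h : V ≃ₗ[ZMod p] V) v = v → h = 1 :=
    S0684.semireg H hreg
  have hAC : Fpf.AC H := fun A hA => S0684.cyclic_of_semireg H A hA
    (fun a v hv hfix => Subtype.ext (hsemi a v hv hfix))
  have hneg : ∀ h : H, h * h = 1 → h ≠ 1 → ∀ v, (h : V ≃ₗ[ZMod p] V) v = -v := by
    intro h hh hne v
    by_contra hcon
    apply hne
    apply hsemi h (v + (h : V ≃ₗ[ZMod p] V) v)
    · intro h0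
      apply hcon
      exact eq_neg_of_add_eq_zero_right h0
    · rw [map_add]
      have h1 : (h : V ≃ₗ[ZMod p] V) ((h : V ≃ₗ[ZMod p] V) v) = v :=
        congrArg (fun g : H => (g : V ≃ₗ[ZMod p] V) v) hh
      rw [h1, add_comm]
  have hUI : Fpf.UI H := by
    intro a b ha ha1 hb hb1
    apply Subtype.ext
    apply LinearEquiv.ext
    intro v
    rw [hneg a ha ha1 v, hneg b hb hb1 v]
  have := hNn
  have := hAn
  have hDn : (⁅N, N⁆ : Subgroup H).Normal := inferInstance
  have hDle : ⁅N, N⁆ ≤ N := Subgroup.commutator_le_left N N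
  by_cases hD : ⁅N, N⁆ = N
  · right
    have hNbot : N ≠ ⊥ := by
      rintro rfl
      exact hNna ⟨⟨fun a b => Subsingleton.elim _ _⟩⟩
    exact perfect_iso hub H hsemi N hD hNbot
  · left
    have hDc : IsMulCommutative (⁅N, N⁆ : Subgroup H) := by
      by_contra hcon
      exact hD (hNmin _ hDn hDle hcon)
    have hAC' : A ≤ Subgroup.centralizer (A : Set H) := by
      intro a ha
      rw [Subgroup.mem_centralizer_iff]
      intro b hb
      exact congrArg Subtype.val (hAc.is_comm.comm ⟨b, hb⟩ ⟨a, ha⟩)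
    have hDA : ⁅N, N⁆ ≤ A := by
      have hDC : ⁅N, N⁆ ≤ Subgroup.centralizer (A : Set H) := hDle.trans hNle
      have hDD : ⁅N, N⁆ ≤ Subgroup.centralizer ((⁅N, N⁆ : Subgroup H) : Set H) := by
        intro b hb
        rw [Subgroup.mem_centralizer_iff]
        intro b' hb'
        exact congrArg Subtype.val (hDc.is_comm.comm ⟨b', hb'⟩ ⟨b, hb⟩)
      have hAD : A ≤ Subgroup.centralizer ((⁅N, N⁆ : Subgroup H) : Set H) :=
        Subgroup.le_centralizer_iff.mp hDC
      have hsup : A ⊔ ⁅N, N⁆ ≤ Subgroup.centralizer ((A ⊔ ⁅N, N⁆ : Subgroup H) : Set H) := by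
        rw [sup_le_iff]
        constructor
        · rw [Subgroup.le_centralizer_iff, sup_le_iff]; exact ⟨hAC', hDC⟩
        · rw [Subgroup.le_centralizer_iff, sup_le_iff]; exact ⟨hAD, hDD⟩
      have hsc : IsMulCommutative (A ⊔ ⁅N, N⁆ : Subgroup H) :=
        ⟨⟨fun a b => Subtype.ext (Subgroup.mem_centralizer_iff.mp (hsup b.2) a a.2)⟩⟩
      have h := hAmax (A ⊔ ⁅N, N⁆) inferInstance hsc le_sup_left
      calc ⁅N, N⁆ ≤ A ⊔ ⁅N, N⁆ := le_sup_right
      _ = A := h
    have hNpair : ∃ x ∈ N, ∃ y ∈ N, x * y ≠ y * x := by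
      by_contra hcon
      push Not at hcon
      exact hNna ⟨⟨fun a b => Subtype.ext (hcon a a.2 b b.2)⟩⟩
    obtain ⟨x₀, hx₀, y₀, hy₀, hne⟩ := hNpair
    have hcA : x₀ * y₀ * x₀⁻¹ * y₀⁻¹ ∈ A := hDA (Subgroup.commutator_mem_commutator hx₀ hy₀)
    have hcx : Commute (x₀ * y₀ * x₀⁻¹ * y₀⁻¹) x₀ :=
      Subgroup.mem_centralizer_iff.mp (hNle hx₀) _ hcA
    have hcy : Commute (x₀ * y₀ * x₀⁻¹ * y₀⁻¹) y₀ :=
      Subgroup.mem_centralizer_iff.mp (hNle hy₀) _ hcA
    have hrel : x₀ * y₀ = (x₀ * y₀ * x₀⁻¹ * y₀⁻¹) * y₀ * x₀ := by group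
    have hc1 : x₀ * y₀ * x₀⁻¹ * y₀⁻¹ ≠ 1 := by
      intro h1
      apply hne
      rw [hrel, h1, one_mul]
    generalize x₀ * y₀ * x₀⁻¹ * y₀⁻¹ = c at hcA hcx hcy hrel hc1
    obtain ⟨hcc, m, m', hX, hY, hXY⟩ := Fpf.exists_quaternion hAC hUI hrel hcx hcy hc1
    have key : ∃ X ∈ N, ∃ Y ∈ N, X * X = c ∧ Y * Y = c ∧ X * Y = c * Y * X :=
      ⟨x₀ ^ m, N.pow_mem hx₀ m, y₀ ^ m', N.pow_mem hy₀ m', hX, hY, hXY⟩
    clear hX hY hXY
    obtain ⟨X, hXN, Y, hYN, hX, hY, hXY⟩ := key
    have hzc : ∀ g : H, Commute c g := Fpf.central_of_UI hUI hc1 hcc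
    have dich : ∀ u ∈ N, ∀ v ∈ N, Commute u v ∨ u * v = c * v * u := by
      intro u hu v hv
      have hdA : u * v * u⁻¹ * v⁻¹ ∈ A := hDA (Subgroup.commutator_mem_commutator hu hv)
      have hdu : Commute (u * v * u⁻¹ * v⁻¹) u := Subgroup.mem_centralizer_iff.mp (hNle hu) _ hdA
      have hdv : Commute (u * v * u⁻¹ * v⁻¹) v := Subgroup.mem_centralizer_iff.mp (hNle hv) _ hdA
      have hrel' : u * v = (u * v * u⁻¹ * v⁻¹) * v * u := by group
      generalize u * v * u⁻¹ * v⁻¹ = d at hdA hdu hdv hrel'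
      by_cases hd1 : d = 1
      · left
        show u * v = v * u
        rw [hrel', hd1, one_mul]
      · right
        have := Fpf.comm_sq_eq_one hAC hUI hrel' hdu hdv hd1
        rcases Fpf.sq_cases hUI hc1 hcc this with h | h
        · exact absurd h hd1
        · rw [← h]; exact hrel'
    have hsix : ∀ b ∈ N, b * b = c →
        (b = X ∨ b = c * X ∨ b = Y ∨ b = c * Y ∨ b = X * Y ∨ b = c * (X * Y)) := by
      intro b hb hbb
      rcases dich b hb X hXN with h1 | h1
      · rcases Fpf.eq_or_eq_mul_of_comm hUI hc1 hcc hbb hX h1 with h | h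
        · left; exact h
        · right; left; exact h
      · rcases dich b hb Y hYN with h2 | h2
        · rcases Fpf.eq_or_eq_mul_of_comm hUI hc1 hcc hbb hY h2 with h | h
          · right; right; left; exact h
          · right; right; right; left; exact h
        · have hzX : Commute c X := hzc X
          have h3 : Commute b (X * Y) := by
            show b * (X * Y) = X * Y * b
            calc b * (X * Y) = (b * X) * Y := by rw [mul_assoc]
            _ = c * X * (b * Y) := by rw [h1]; simp only [mul_assoc]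
            _ = c * X * (c * Y * b) := by rw [h2]
            _ = (c * X) * c * Y * b := by simp only [mul_assoc]
            _ = X * (c * c) * Y * b := by rw [hzX.eq]; simp only [mul_assoc]
            _ = X * Y * b := by rw [hcc, mul_one]
          have hXY2 : (X * Y) * (X * Y) = c := by
            have hYX : Y * X = c * X * Y := by
              have := Fpf.swap_rel hXY
              rwa [inv_eq_of_mul_eq_one_left hcc] at this
            calc (X * Y) * (X * Y) = X * (Y * X) * Y := by simp only [mul_assoc]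
            _ = X * (c * X * Y) * Y := by rw [hYX]
            _ = (X * c) * X * Y * Y := by simp only [mul_assoc]
            _ = c * (X * X) * (Y * Y) := by rw [← hzX.eq]; simp only [mul_assoc]
            _ = c := by rw [hX, hY, hcc, one_mul]
          rcases Fpf.eq_or_eq_mul_of_comm hUI hc1 hcc hbb hXY2 h3 with h | h
          · right; right; right; right; left; exact h
          · right; right; right; right; right; exact h
    -- the quaternion subgroup generated by `X`, `Y`
    have hXQ : X ∈ Subgroup.closure ({X, Y} : Set H) := Subgroup.subset_closure (by simp)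
    have hYQ : Y ∈ Subgroup.closure ({X, Y} : Set H) := Subgroup.subset_closure (by simp)
    have hcQ : c ∈ Subgroup.closure ({X, Y} : Set H) := hX ▸ Subgroup.mul_mem _ hXQ hXQ
    have hQN : Subgroup.closure ({X, Y} : Set H) ≤ N := by
      rw [Subgroup.closure_le]
      rintro _ (rfl | rfl)
      · exact hXN
      · exact hYN
    have hconj : ∀ t ∈ N, t * t = c → ∀ g : H,
        g * t * g⁻¹ ∈ Subgroup.closure ({X, Y} : Set H) := by
      intro t ht htt g
      have hsq : (g * t * g⁻¹) * (g * t * g⁻¹) = c := by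
        calc (g * t * g⁻¹) * (g * t * g⁻¹) = g * (t * t) * g⁻¹ := by group
        _ = g * c * g⁻¹ := by rw [htt]
        _ = c * g * g⁻¹ := by rw [(hzc g).eq]
        _ = c := by group
      rcases hsix _ (hNn.conj_mem t ht g) hsq with h | h | h | h | h | h <;> rw [h]
      · exact hXQ
      · exact Subgroup.mul_mem _ hcQ hXQ
      · exact hYQ
      · exact Subgroup.mul_mem _ hcQ hYQ
      · exact Subgroup.mul_mem _ hXQ hYQ
      · exact Subgroup.mul_mem _ hcQ (Subgroup.mul_mem _ hXQ hYQ)
    have hQn : (Subgroup.closure ({X, Y} : Set H)).Normal := by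
      refine ⟨fun n hn g => ?_⟩
      induction hn using Subgroup.closure_induction with
      | mem x hx =>
        rcases hx with rfl | rfl
        · exact hconj _ hXN hX g
        · exact hconj _ hYN hY g
      | one =>
        have h1 : g * 1 * g⁻¹ = 1 := by group
        rw [h1]
        exact Subgroup.one_mem _
      | mul a b _ _ iha ihb =>
        have h1 : g * (a * b) * g⁻¹ = (g * a * g⁻¹) * (g * b * g⁻¹) := by group
        rw [h1]
        exact Subgroup.mul_mem _ iha ihb
      | inv a _ iha =>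
        have h1 : g * a⁻¹ * g⁻¹ = (g * a * g⁻¹)⁻¹ := by group
        rw [h1]
        exact Subgroup.inv_mem _ iha
    have hQna : ¬ IsMulCommutative (Subgroup.closure ({X, Y} : Set H)) := by
      intro hQc
      have h1 : X * Y = Y * X := congrArg Subtype.val (hQc.is_comm.comm ⟨X, hXQ⟩ ⟨Y, hYQ⟩)
      apply hc1
      have h2 : c * (Y * X) = 1 * (Y * X) := by rw [one_mul, ← mul_assoc, ← hXY, h1]
      exact mul_right_cancel h2
    have hQeq : Subgroup.closure ({X, Y} : Set H) = N := hNmin _ hQn hQN hQna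
    -- the isomorphism
    have hA4 : X ^ 4 = 1 := by
      have h1 : X ^ 4 = (X * X) * (X * X) := by
        rw [← pow_two X, ← pow_add]
      rw [h1, hX, hcc]
    have hXX' : Y * Y = X ^ 2 := by rw [hY, pow_two, hX]
    have hAX : X * Y = Y * X ^ 3 := by
      have h1 : X ^ 3 = (X * X) * X := by
        rw [pow_succ, pow_two]
      rw [h1, hX, hXY, ← mul_assoc, (hzc Y).eq]
    let f : QuaternionGroup 2 →* H := Cfsg.Agent.S4295.qliftHom X Y hA4 hXX' hAX
    have hfa : ∀ i : ZMod (2 * 2), f (QuaternionGroup.a i) = X ^ i.val := fun i => rfl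
    have hfxa : ∀ i : ZMod (2 * 2), f (QuaternionGroup.xa i) = Y * X ^ i.val := fun i => rfl
    have hfinj : Function.Injective f := by
      rw [injective_iff_map_eq_one]
      intro w hw
      by_contra hw1
      have h2 : f (QuaternionGroup.a 2) = c := by
        rw [hfa]
        have h3 : ((2 : ZMod (2 * 2))).val = 2 := rfl
        rw [h3, pow_two, hX]
      rcases Cfsg.Agent.S4295.quat_cases w hw1 with h | h
      · rw [h, h2] at hw
        exact hc1 hw
      · have h3 := congrArg f h
        rw [map_mul, hw, one_mul, h2] at h3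
        exact hc1 h3.symm
    have hrange : f.range = N := by
      apply le_antisymm
      · rintro _ ⟨w, rfl⟩
        rcases w with i | i
        · rw [hfa]; exact N.pow_mem hXN _
        · rw [hfxa]; exact N.mul_mem hYN (N.pow_mem hXN _)
      · rw [← hQeq, Subgroup.closure_le]
        rintro _ (rfl | rfl)
        · refine ⟨QuaternionGroup.a 1, ?_⟩
          rw [hfa]
          have h3 : ((1 : ZMod (2 * 2))).val = 1 := rfl
          rw [h3, pow_one]
        · refine ⟨QuaternionGroup.xa 0, ?_⟩
          rw [hfxa]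
          have h3 : ((0 : ZMod (2 * 2))).val = 0 := rfl
          rw [h3, pow_zero, mul_one]
    exact ⟨((MonoidHom.ofInjective hfinj).trans (MulEquiv.subgroupCongr hrange)).symm⟩

end Cfsg.Agent.Lib.Helper86.NF
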